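import Mathlib
import Cfsg.Agent.Lib.SmallSimple.Orbits
import Cfsg.Agent.Lib.SmallSimple.Sign
import Cfsg.Agent.Lib.SmallSimple.Inter
import Cfsg.Agent.Lib.SmallSimple.Count
import Cfsg.Agent.Lib.Small.Sieve
import Cfsg.Agent.Lib.Small.Basic

/-!
Simple groups with Sylow subgroups of prime order: centralizers and counting.
-/

set_option autoImplicit false

open scoped Pointwise

namespace Cfsg.Agent.Lib.FG85.PrimeSylow

open MulAction Cfsg.Agent.Lib.SmallSimple.Count Cfsg.Agent.Lib.Small.Basic
open Cfsg.Agent.Lib.SmallSimple.Inter (card_subgroupOf)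
open Cfsg.Agent.Lib.SmallSimple.Sign (eq_one_of_smul_eq card_fixedBy_le_two four_dvd_card_sub_fixedBy)

universe u

variable {X : Type u} [Group X] [Finite X] {p : ℕ} [hp : Fact p.Prime]

theorem mem_smul_iff {B : Sylow p X} {x y : X} :
    y ∈ ((x • B : Sylow p X) : Subgroup X) ↔ x⁻¹ * y * x ∈ (B : Subgroup X) := by
  rw [Sylow.coe_subgroup_smul, Subgroup.mem_pointwise_smul_iff_inv_smul_mem]
  rfl

/-- The centralizers of the Sylow subgroups have the same order. -/
theorem card_centralizer_eq (P Q : Sylow p X) :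
    Nat.card (Subgroup.centralizer ((P : Subgroup X) : Set X)) =
      Nat.card (Subgroup.centralizer ((Q : Subgroup X) : Set X)) := by
  obtain ⟨g, rfl⟩ := MulAction.exists_smul_eq X P Q
  refine Nat.card_congr
    { toFun := fun x => ⟨g * x * g⁻¹, ?_⟩
      invFun := fun x => ⟨g⁻¹ * x * g, ?_⟩
      left_inv := fun x => Subtype.ext (by simp [mul_assoc])
      right_inv := fun x => Subtype.ext (by simp [mul_assoc]) }
  · rw [Subgroup.mem_centralizer_iff]
    intro y hy
    have hy' : g⁻¹ * y * g ∈ (P : Subgroup X) := mem_smul_iff.1 hy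
    have h1 := (Subgroup.mem_centralizer_iff.1 x.2) _ hy'
    calc y * (g * x * g⁻¹) = g * ((g⁻¹ * y * g) * x) * g⁻¹ := by group
      _ = g * (x * (g⁻¹ * y * g)) * g⁻¹ := by rw [h1]
      _ = g * x * g⁻¹ * y := by group
  · rw [Subgroup.mem_centralizer_iff]
    intro y hy
    have hy' : g * y * g⁻¹ ∈ ((g • P : Sylow p X) : Subgroup X) := by
      rw [mem_smul_iff]
      have e : g⁻¹ * (g * y * g⁻¹) * g = y := by group
      rw [e]
      exact hy
    have h1 := (Subgroup.mem_centralizer_iff.1 x.2) _ hy'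
    calc y * (g⁻¹ * x * g) = g⁻¹ * ((g * y * g⁻¹) * x) * g := by group
      _ = g⁻¹ * (x * (g * y * g⁻¹)) * g := by rw [h1]
      _ = g⁻¹ * x * g * y := by group

/-- In a simple group with more than one Sylow `p`-subgroup, the action on the Sylow subgroups is
faithful. -/
theorem eq_one_of_forall_smul [IsSimpleGroup X] (hn1 : Nat.card (Sylow p X) ≠ 1) (g : X)
    (h : ∀ T : Sylow p X, g • T = T) : g = 1 := by
  rcases hom_trivial_or_injective (MulAction.toPermHom X (Sylow p X)) with h1 | h1
  · exfalso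
    obtain ⟨P⟩ : Nonempty (Sylow p X) := inferInstance
    have h4 : Nat.card (Sylow p X) = (Subgroup.normalizer ((P : Subgroup X) : Set X)).index :=
      P.card_eq_index_normalizer
    have h5 : Subgroup.normalizer ((P : Subgroup X) : Set X) = ⊤ := by
      rw [eq_top_iff]
      intro g _
      have := h1 g
      have h6 := congrArg (fun f : Equiv.Perm (Sylow p X) => f P) this
      exact Sylow.smul_eq_iff_mem_normalizer.1 h6
    rw [h5, Subgroup.index_top] at h4
    exact hn1 h4
  · apply h1
    rw [map_one]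
    ext T : 1
    exact h T

theorem comm_of_card (P : Sylow p X) (hcard : Nat.card (P : Subgroup X) = p) {x y : X}
    (hx : x ∈ (P : Subgroup X)) (hy : y ∈ (P : Subgroup X)) : x * y = y * x := by
  have hcyc : IsCyclic ↥(P : Subgroup X) := isCyclic_of_prime_card hcard
  have h1 : IsMulCommutative ↥(P : Subgroup X) := IsCyclic.isMulCommutative
  exact congrArg Subtype.val (h1.is_comm.comm ⟨x, hx⟩ ⟨y, hy⟩)

/-- A prime `q` larger than the number `(n_p - 1)/p` of `P`-orbits on the other Sylow subgroups does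
not divide `|C(P)|`. -/
theorem not_dvd_card_centralizer [IsSimpleGroup X] (hn1 : Nat.card (Sylow p X) ≠ 1)
    (P : Sylow p X) (hcard : Nat.card (P : Subgroup X) = p) {q : ℕ} (hq : q.Prime) (hqp : q ≠ p)
    (hk : (Nat.card (Sylow p X) - 1) / p < q) :
    ¬ q ∣ Nat.card (Subgroup.centralizer ((P : Subgroup X) : Set X)) := by
  classical
  intro hd
  haveI : Fact q.Prime := ⟨hq⟩
  set C := Subgroup.centralizer ((P : Subgroup X) : Set X) with hC
  obtain ⟨x', hx'⟩ := exists_prime_orderOf_dvd_card' (G := C) q hd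
  set x : X := (x' : X) with hxdef
  have hord : orderOf x = q := by
    rw [hxdef, ← hx', Subgroup.orderOf_coe]
  have hxC : x ∈ C := x'.2
  have hcomm : ∀ y ∈ (P : Subgroup X), x * y = y * x := fun y hy =>
    ((Subgroup.mem_centralizer_iff.1 hxC) y hy).symm
  have hxP : x • P = P := Sylow.smul_eq_iff_mem_normalizer.2 (Subgroup.centralizer_le_normalizer _ hxC)
  have hfix : ∀ T : Sylow p X, x • T = T := by
    intro T
    by_cases hT : T = P
    · rw [hT]; exact hxP
    -- the key case
    have key : ∀ (i j : ℕ) (y z : (P : Subgroup X)), j < i → i < q →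
        x ^ i • (y : X) • T = x ^ j • (z : X) • T → x • T = T := by
      intro i j y z hji hiq he
      obtain ⟨n, rfl⟩ : ∃ n, i = j + n := ⟨i - j, by omega⟩
      have hn0 : 0 < n := by omega
      have hnq : n < q := by omega
      have h1 : x ^ n • (y : X) • T = (z : X) • T := by
        rw [pow_add, mul_smul] at he
        exact smul_left_cancel _ he
      set w : X := (z : X)⁻¹ * y with hw
      have hwP : w ∈ (P : Subgroup X) := mul_mem (inv_mem z.2) y.2
      have hcw : Commute x w := hcomm w hwP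
      have h2 : (x ^ n * w) • T = T := by
        have e : x ^ n * w = (z : X)⁻¹ * (x ^ n * (y : X)) := by
          have hzn : Commute (x ^ n) (z : X)⁻¹ :=
            (Commute.pow_left (hcomm _ (inv_mem z.2)) n)
          rw [hw, ← mul_assoc, hzn.eq, mul_assoc]
        rw [e, mul_smul, mul_smul, h1, inv_smul_smul]
      have h3 : x ^ (n * p) • T = T := by
        have h4 : (x ^ n * w) ^ p = x ^ (n * p) := by
          have hc2 : Commute (x ^ n) w := hcw.pow_left n
          rw [hc2.mul_pow, ← pow_mul]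
          have h5 : w ^ p = 1 := by
            have h6 := pow_card_eq_one' (x := (⟨w, hwP⟩ : ↥(P : Subgroup X)))
            rw [hcard] at h6
            exact congrArg Subtype.val h6
          rw [h5, mul_one]
        rw [← h4]
        have h5 : x ^ n * w ∈ stabilizer X T := h2
        exact pow_mem h5 p
      have hcop : Nat.Coprime (n * p) q := by
        apply Nat.Coprime.mul_left
        · exact (Nat.coprime_of_lt_prime hn0.ne' hnq hq).symm
        · exact ((Nat.coprime_primes hp.out hq).2 hqp.symm)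
      obtain ⟨m, hm⟩ := Nat.exists_mul_mod_eq_one_of_coprime hcop hq.one_lt
      have h6 : x = (x ^ (n * p)) ^ m := by
        rw [← pow_mul, ← pow_mod_orderOf, hord, hm.2, pow_one]
      rw [h6]
      have h7 : x ^ (n * p) ∈ stabilizer X T := h3
      exact pow_mem h7 m
    -- pigeonhole
    have hcardY : Nat.card {U : Sylow p X // U ≠ P} = Nat.card (Sylow p X) - 1 := by
      have := Fintype.ofFinite (Sylow p X)
      have h0 : Nat.card {x : Sylow p X // x = P} = 1 := by simp
      rw [Nat.card_eq_fintype_card, Fintype.card_subtype_compl, ← Nat.card_eq_fintype_card,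
        ← Nat.card_eq_fintype_card, h0]
    let φ : Fin q × ↥(P : Subgroup X) → {U : Sylow p X // U ≠ P} := fun a =>
      ⟨x ^ (a.1 : ℕ) • (a.2 : X) • T, by
        intro h
        apply hT
        have h1 : x ^ (a.1 : ℕ) • P = P := by
          have h5 : x ∈ stabilizer X P := hxP
          exact pow_mem h5 _
        have h2 : (a.2 : X) • P = P := Sylow.smul_eq_iff_mem_normalizer.2 (Subgroup.le_normalizer a.2.2)
        have h3 : x ^ (a.1 : ℕ) • (a.2 : X) • T = x ^ (a.1 : ℕ) • (a.2 : X) • P := by
          rw [h, h2, h1]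
        exact smul_left_cancel _ (smul_left_cancel _ h3)⟩
    have hlt : Nat.card {U : Sylow p X // U ≠ P} < Nat.card (Fin q × ↥(P : Subgroup X)) := by
      rw [hcardY, Nat.card_prod, hcard, Nat.card_eq_fintype_card (α := Fin q), Fintype.card_fin]
      have hmod : Nat.card (Sylow p X) ≡ 1 [MOD p] := card_sylow_modEq_one p X
      have hdv : p ∣ Nat.card (Sylow p X) - 1 := by
        have hpos : 1 ≤ Nat.card (Sylow p X) := Nat.card_pos
        exact (Nat.modEq_iff_dvd' hpos).1 hmod.symm
      obtain ⟨k, hk'⟩ := hdv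
      rw [hk'] at hk ⊢
      rw [Nat.mul_div_cancel_left _ hp.out.pos] at hk
      rw [mul_comm q p]
      exact Nat.mul_lt_mul_of_pos_left hk hp.out.pos
    haveI : Finite (Fin q × ↥(P : Subgroup X)) := inferInstance
    obtain ⟨a, b, hab, hφ⟩ := by
      haveI := Fintype.ofFinite (Fin q × ↥(P : Subgroup X))
      haveI := Fintype.ofFinite {U : Sylow p X // U ≠ P}
      rw [Nat.card_eq_fintype_card, Nat.card_eq_fintype_card] at hlt
      exact Fintype.exists_ne_map_eq_of_card_lt φ hlt
    have he : x ^ (a.1 : ℕ) • (a.2 : X) • T = x ^ (b.1 : ℕ) • (b.2 : X) • T := congrArg Subtype.val hφ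
    rcases lt_trichotomy (a.1 : ℕ) (b.1 : ℕ) with h | h | h
    · exact key _ _ b.2 a.2 h b.1.2 he.symm
    · exfalso
      rw [h] at he
      have h1 : (a.2 : X) • T = (b.2 : X) • T := smul_left_cancel _ he
      have h2 : ((b.2 : X)⁻¹ * a.2) • T = T := by
        rw [mul_smul, h1, inv_smul_smul]
      have h3 := eq_one_of_smul_eq P T hcard hT (mul_mem (inv_mem b.2.2) a.2.2) h2
      rw [inv_mul_eq_one] at h3
      apply hab
      apply Prod.ext
      · exact Fin.ext h
      · exact Subtype.ext h3.symm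
    · exact key _ _ a.2 b.2 h a.1.2 he
  have hx1 : x = 1 := eq_one_of_forall_smul hn1 x hfix
  rw [hx1, orderOf_one] at hord
  exact hq.one_lt.ne hord


/-- `N(P)/C(P)` embeds into `Aut P`, and it is nontrivial by Burnside. -/
theorem exists_index_centralizer [IsSimpleGroup X] (hnc : ¬ IsMulCommutative X)
    (hdvd : p ∣ Nat.card X) (P : Sylow p X) (hcard : Nat.card (P : Subgroup X) = p) :
    ∃ a, a ∣ p - 1 ∧ a ≠ 1 ∧
      Nat.card (Subgroup.normalizer ((P : Subgroup X) : Set X)) =
        a * Nat.card (Subgroup.centralizer ((P : Subgroup X) : Set X)) := by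
  have hcyc : IsCyclic ↥(P : Subgroup X) := isCyclic_of_prime_card hcard
  set H : Subgroup X := (P : Subgroup X) with hH
  have key := Subgroup.card_dvd_of_injective _
    (QuotientGroup.kerLift_injective H.normalizerMonoidHom)
  rw [Subgroup.normalizerMonoidHom_ker, ← Subgroup.index, ← Subgroup.relIndex, hcyc.card_mulAut,
    hcard, Nat.totient_prime hp.out] at key
  refine ⟨(Subgroup.centralizer (H : Set X)).relIndex (Subgroup.normalizer (H : Set X)), key, ?_, ?_⟩
  · intro h
    exact normalizer_not_le_centralizer hnc p hdvd P (Subgroup.relIndex_eq_one.1 h)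
  · have hCN : Subgroup.centralizer (H : Set X) ≤ Subgroup.normalizer (H : Set X) :=
      Subgroup.centralizer_le_normalizer _
    have h2 := Subgroup.card_mul_index ((Subgroup.centralizer (H : Set X)).subgroupOf
      (Subgroup.normalizer (H : Set X)))
    rw [Nat.card_congr (Subgroup.subgroupOfEquivOfLe hCN).toEquiv] at h2
    rw [mul_comm]
    exact h2.symm

/-- If `p ≡ 3 mod 4` and `n_p = p + 1` then the normalizer has odd order. -/
theorem not_two_dvd_card_normalizer [IsSimpleGroup X] (hnc : ¬ IsMulCommutative X)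
    (P : Sylow p X) (hcard : Nat.card (P : Subgroup X) = p) (h4 : p % 4 = 3)
    (hn : Nat.card (Sylow p X) = p + 1) :
    ¬ 2 ∣ Nat.card (Subgroup.normalizer ((P : Subgroup X) : Set X)) := by
  intro h2
  haveI : Fact (Nat.Prime 2) := ⟨Nat.prime_two⟩
  obtain ⟨t', ht'⟩ := exists_prime_orderOf_dvd_card'
    (G := Subgroup.normalizer ((P : Subgroup X) : Set X)) 2 h2
  set t : X := (t' : X) with ht
  have hord : orderOf t = 2 := by rw [ht, ← ht', Subgroup.orderOf_coe]
  have htN : t ∈ Subgroup.normalizer ((P : Subgroup X) : Set X) := t'.2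
  have ht2 : t ^ 2 = 1 := by rw [← hord, pow_orderOf_eq_one]
  have hp0 : 0 < p := hp.out.pos
  have hpne : p ≠ 2 := by omega
  have hodd2 : ¬ 2 ∣ Nat.card (Subgroup.centralizer ((P : Subgroup X) : Set X)) := by
    refine not_dvd_card_centralizer (by rw [hn]; omega) P hcard Nat.prime_two hpne.symm ?_
    rw [hn, Nat.add_sub_cancel, Nat.div_self hp0]
    omega
  have htC : t ∉ Subgroup.centralizer ((P : Subgroup X) : Set X) := fun hC =>
    hodd2 (hord ▸ Subgroup.orderOf_dvd_natCard _ hC)
  have hle := card_fixedBy_le_two P hcard hn hpne htN ht2 htC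
  have h4' := four_dvd_card_sub_fixedBy hnc (Ω := Sylow p X) t ht2
  rw [hn] at h4'
  have hfix : 0 < Nat.card (fixedBy (Sylow p X) t) := by
    haveI : Nonempty (fixedBy (Sylow p X) t) :=
      ⟨⟨P, Sylow.smul_eq_iff_mem_normalizer.2 htN⟩⟩
    exact Nat.card_pos
  omega

/-- An element of order `p` generates a Sylow subgroup when the Sylow subgroups have order `p`. -/
theorem exists_sylow_eq_zpowers (P : Sylow p X) (hcard : Nat.card (P : Subgroup X) = p) {y : X}
    (hy : orderOf y = p) : ∃ Q : Sylow p X, (Q : Subgroup X) = Subgroup.zpowers y := by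
  have h1 : IsPGroup p (Subgroup.zpowers y) := by
    apply IsPGroup.of_card (n := 1)
    rw [Nat.card_zpowers, hy, pow_one]
  obtain ⟨Q, hQ⟩ := h1.exists_le_sylow
  refine ⟨Q, ?_⟩
  have hyQ : y ∈ (Q : Subgroup X) := hQ (Subgroup.mem_zpowers y)
  refine sylow_eq_zpowers_of_card Q (card_sylow_of_card P Q hcard) hyQ ?_
  rintro rfl
  rw [orderOf_one] at hy
  exact hp.out.one_lt.ne hy

/-- Compatibility: `q ∣ |C(P)|` implies `p ∣ |C(Q)|`. -/
theorem dvd_card_centralizer_symm {q : ℕ} [hq : Fact q.Prime] (P : Sylow p X) (Q : Sylow q X)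
    (hP : Nat.card (P : Subgroup X) = p) (hQ : Nat.card (Q : Subgroup X) = q)
    (hd : q ∣ Nat.card (Subgroup.centralizer ((P : Subgroup X) : Set X))) :
    p ∣ Nat.card (Subgroup.centralizer ((Q : Subgroup X) : Set X)) := by
  obtain ⟨y', hy'⟩ := exists_prime_orderOf_dvd_card'
    (G := Subgroup.centralizer ((P : Subgroup X) : Set X)) q hd
  set y : X := (y' : X) with hy
  have hord : orderOf y = q := by rw [hy, ← hy', Subgroup.orderOf_coe]
  obtain ⟨Q', hQ'⟩ := exists_sylow_eq_zpowers Q hQ hord
  rw [← card_centralizer_eq Q' Q, ← hP]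
  apply Subgroup.card_dvd_of_le
  rw [hQ', Subgroup.coe_zpowers]
  intro x hx
  rw [Subgroup.mem_centralizer_iff]
  rintro _ ⟨n, rfl⟩
  have h1 : x * y = y * x := Subgroup.mem_centralizer_iff.1 y'.2 x hx
  have h2 : Commute y x := h1.symm
  exact (h2.zpow_left n)

/-- Elements of order divisible by `p` and `q`. -/
theorem dvd_card_centralizer_of_dvd_orderOf {q : ℕ} [hq : Fact q.Prime] (hpq : p ≠ q)
    (P : Sylow p X) (hP : Nat.card (P : Subgroup X) = p) {x : X}
    (h1 : p ∣ orderOf x) (h2 : q ∣ orderOf x) :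
    q ∣ Nat.card (Subgroup.centralizer ((P : Subgroup X) : Set X)) := by
  have hpos : 0 < orderOf x := orderOf_pos x
  have ho1 : orderOf (x ^ (orderOf x / p)) = p := orderOf_pow_orderOf_div hpos.ne' h1
  have ho2 : orderOf (x ^ (orderOf x / q)) = q := orderOf_pow_orderOf_div hpos.ne' h2
  obtain ⟨P', hP'⟩ := exists_sylow_eq_zpowers P hP ho1
  rw [← card_centralizer_eq P' P]
  have hmem : x ^ (orderOf x / q) ∈ Subgroup.centralizer ((P' : Subgroup X) : Set X) := by
    rw [hP', Subgroup.coe_zpowers, Subgroup.mem_centralizer_iff]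
    rintro _ ⟨n, rfl⟩
    have hc : Commute (x ^ (orderOf x / p)) (x ^ (orderOf x / q)) :=
      (Commute.refl x).pow_pow _ _
    exact hc.zpow_left n
  have := Subgroup.orderOf_dvd_natCard _ hmem
  rwa [ho2] at this

/-- In `C = N × H` with `N` central of order `p`, elements outside `H` have order divisible by `p`. -/
theorem dvd_orderOf_of_notMem_complement {C : Type*} [Group C] [Finite C] {N H : Subgroup C}
    (hNcard : Nat.card N = p) (hNcentral : ∀ y ∈ N, ∀ z : C, y * z = z * y) {m : ℕ}
    (hHcard : Nat.card H = m) (hpm : ¬ p ∣ m) (hsup : N ⊔ H = ⊤) (x : C) (hxH : x ∉ H) :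
    p ∣ orderOf x := by
  by_contra hnd
  have h2 : x ∈ N ⊔ H := by rw [hsup]; trivial
  haveI hNn : N.Normal := by
    constructor
    intro y hy z
    have : z * y * z⁻¹ = y := by
      rw [← hNcentral y hy z, mul_inv_cancel_right]
    rw [this]
    exact hy
  have h2' : x ∈ ((N ⊔ H : Subgroup C) : Set C) := h2
  rw [Subgroup.normal_mul] at h2'
  obtain ⟨y, hy, h, hh, hxe⟩ := Set.mem_mul.1 h2'
  have hcomm : Commute y h := hNcentral y hy h
  have hhm : h ^ m = 1 := by
    have h1 := pow_card_eq_one' (x := (⟨h, hh⟩ : H))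
    rw [hHcard] at h1
    exact congrArg Subtype.val h1
  have hpowm : x ^ m = y ^ m := by
    rw [← hxe, hcomm.mul_pow, hhm, mul_one]
  have hyp : y ^ p = 1 := by
    have h1 := pow_card_eq_one' (x := (⟨y, hy⟩ : N))
    rw [hNcard] at h1
    exact congrArg Subtype.val h1
  have h3 : orderOf (y ^ m) ∣ p := orderOf_dvd_of_pow_eq_one (by
    rw [← pow_mul, mul_comm, pow_mul, hyp, one_pow])
  have h4 : orderOf (y ^ m) ∣ orderOf x := by
    rw [← hpowm]
    exact orderOf_pow_dvd _
  have h5 : orderOf (y ^ m) = 1 := by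
    rcases (Nat.dvd_prime hp.out).1 h3 with h6 | h6
    · exact h6
    · exfalso
      apply hnd
      rw [← h6]
      exact h4
  have h6 : y ^ m = 1 := orderOf_eq_one_iff.1 h5
  have hy1 : y = 1 := by
    have h7 : orderOf y ∣ m := orderOf_dvd_of_pow_eq_one h6
    have h8 : orderOf y ∣ p := orderOf_dvd_of_pow_eq_one hyp
    have h9 : orderOf y = 1 := by
      rcases (Nat.dvd_prime hp.out).1 h8 with h10 | h10
      · exact h10
      · exfalso
        apply hpm
        rw [← h10]
        exact h7
    exact orderOf_eq_one_iff.1 h9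
  apply hxH
  rw [← hxe, hy1, one_mul]
  exact hh

/-- The number of elements of `C(Q)` of order divisible by `p`. -/
theorem card_centralizer_dvd_orderOf_ge (Q : Sylow p X) (hQ : Nat.card (Q : Subgroup X) = p)
    (hpp : ¬ p ^ 2 ∣ Nat.card X) :
    (p - 1) * (Nat.card (Subgroup.centralizer ((Q : Subgroup X) : Set X)) / p) ≤
      Nat.card {x : X // x ∈ Subgroup.centralizer ((Q : Subgroup X) : Set X) ∧ p ∣ orderOf x} := by
  classical
  set C := Subgroup.centralizer ((Q : Subgroup X) : Set X) with hC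
  have hQC : (Q : Subgroup X) ≤ C := by
    intro x hx
    rw [hC, Subgroup.mem_centralizer_iff]
    intro y hy
    exact comm_of_card Q hQ hy hx
  set N : Subgroup C := (Q : Subgroup X).subgroupOf C with hN
  have hNcard : Nat.card N = p := by
    rw [hN, card_subgroupOf, inf_eq_left.2 hQC, hQ]
  have hNcentral : ∀ y ∈ N, ∀ z : C, y * z = z * y := by
    intro y hy z
    apply Subtype.ext
    have h1 : (y : X) ∈ (Q : Subgroup X) := hy
    exact (Subgroup.mem_centralizer_iff.1 z.2) _ h1
  haveI hNn : N.Normal := by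
    constructor
    intro y hy z
    have : z * y * z⁻¹ = y := by
      rw [← hNcentral y hy z, mul_inv_cancel_right]
    rw [this]
    exact hy
  have hindex : Nat.card C = p * N.index := by
    have := N.card_mul_index
    rw [hNcard] at this
    exact this.symm
  have hpindex : ¬ p ∣ N.index := by
    intro hd
    apply hpp
    have h1 : p ^ 2 ∣ Nat.card C := by
      rw [hindex, pow_two]
      exact Nat.mul_dvd_mul_left p hd
    exact h1.trans (Subgroup.card_subgroup_dvd_card C)
  have hcop : Nat.Coprime (Nat.card N) N.index := by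
    rw [hNcard]
    exact (Nat.Prime.coprime_iff_not_dvd hp.out).2 hpindex
  obtain ⟨H, hH⟩ := Subgroup.exists_right_complement'_of_coprime hcop
  have hHcard : Nat.card H = N.index := by
    have h1 := hH.card_mul_card
    rw [hNcard] at h1
    have h2 : p * Nat.card H = p * N.index := by rw [h1, hindex]
    exact Nat.eq_of_mul_eq_mul_left hp.out.pos h2
  have hdiv : Nat.card C / p = N.index := by
    rw [hindex, Nat.mul_div_cancel_left _ hp.out.pos]
  rw [hdiv]
  -- elements outside `H`
  have hkey : ∀ x : C, x ∉ H → p ∣ orderOf (x : X) := by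
    intro x hxH
    have := dvd_orderOf_of_notMem_complement hNcard hNcentral hHcard hpindex hH.sup_eq_top x hxH
    rwa [← Subgroup.orderOf_coe] at this
  -- count
  have hcardT : Nat.card {x : C // x ∉ H} = (p - 1) * N.index := by
    haveI := Fintype.ofFinite C
    have h0 : Nat.card {x : C // x ∈ H} = N.index := hHcard
    have h1 : Nat.card {x : C // x ∉ H} = Nat.card C - Nat.card {x : C // x ∈ H} := by
      simp only [Nat.card_eq_fintype_card]
      exact Fintype.card_subtype_compl _
    rw [h1, h0, hindex, Nat.sub_one_mul]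
  rw [← hcardT]
  refine Nat.card_le_card_of_injective (fun x => ⟨(x.1 : X), x.1.2, hkey x.1 x.2⟩) ?_
  rintro ⟨⟨x, hx⟩, hx'⟩ ⟨⟨y, hy⟩, hy'⟩ h
  have : x = y := congrArg Subtype.val h
  subst this
  rfl

/-- The number of elements of order divisible by `p`. -/
theorem card_dvd_orderOf_ge (P : Sylow p X) (hP : Nat.card (P : Subgroup X) = p)
    (hpp : ¬ p ^ 2 ∣ Nat.card X) :
    Nat.card (Sylow p X) * ((p - 1) * (Nat.card (Subgroup.centralizer ((P : Subgroup X) : Set X)) / p)) ≤
      Nat.card {x : X // p ∣ orderOf x} := by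
  classical
  haveI := Fintype.ofFinite (Sylow p X)
  let Tt : Sylow p X → Type u := fun Q =>
    {x : X // x ∈ Subgroup.centralizer ((Q : Subgroup X) : Set X) ∧ p ∣ orderOf x}
  have hinj : Function.Injective (fun a : (Σ Q : Sylow p X, Tt Q) =>
      (⟨a.2.1, a.2.2.2⟩ : {x : X // p ∣ orderOf x})) := by
    rintro ⟨Q₁, ⟨x₁, hx₁⟩⟩ ⟨Q₂, ⟨x₂, hx₂⟩⟩ h
    have hxx : x₁ = x₂ := congrArg Subtype.val h
    subst hxx
    have hQ₁ := card_sylow_of_card P Q₁ hP
    have hQ₂ := card_sylow_of_card P Q₂ hP
    have hpos : 0 < orderOf x₁ := orderOf_pos _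
    set y := x₁ ^ (orderOf x₁ / p) with hy
    have ho : orderOf y = p := orderOf_pow_orderOf_div hpos.ne' hx₁.2
    have hy1 : y ≠ 1 := by
      intro h1
      rw [h1, orderOf_one] at ho
      exact hp.out.one_lt.ne ho
    obtain ⟨R, hR⟩ := exists_sylow_eq_zpowers P hP ho
    have hyR : y ∈ (R : Subgroup X) := by rw [hR]; exact Subgroup.mem_zpowers y
    have hin : ∀ Q : Sylow p X, Nat.card (Q : Subgroup X) = p →
        x₁ ∈ Subgroup.centralizer ((Q : Subgroup X) : Set X) → (Q : Subgroup X) = Subgroup.zpowers y := by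
      intro Q hQ hxQ
      have h1 : y ∈ Subgroup.centralizer ((Q : Subgroup X) : Set X) := pow_mem hxQ _
      have h2 : y ∈ Subgroup.normalizer ((Q : Subgroup X) : Set X) :=
        Subgroup.centralizer_le_normalizer _ h1
      have h3 : y ∈ (R : Subgroup X) ⊓ Subgroup.normalizer ((Q : Subgroup X) : Set X) := ⟨hyR, h2⟩
      have h4 : y ∈ (Q : Subgroup X) := ((R.isPGroup'.inf_normalizer_sylow Q).le h3).2
      exact sylow_eq_zpowers_of_card Q hQ h4 hy1
    have hQQ : (Q₁ : Subgroup X) = Q₂ := by
      rw [hin Q₁ hQ₁ hx₁.1, hin Q₂ hQ₂ hx₂.1]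
    have hQQ' : Q₁ = Q₂ := Sylow.ext hQQ
    subst hQQ'
    rfl
  have h1 := Nat.card_le_card_of_injective _ hinj
  refine le_trans ?_ h1
  rw [Nat.card_sigma]
  have h2 : ∀ Q ∈ (Finset.univ : Finset (Sylow p X)),
      (p - 1) * (Nat.card (Subgroup.centralizer ((P : Subgroup X) : Set X)) / p) ≤ Nat.card (Tt Q) := by
    intro Q _
    have h3 := card_centralizer_dvd_orderOf_ge Q (card_sylow_of_card P Q hP) hpp
    rwa [← card_centralizer_eq P Q] at h3
  have h3 := Finset.card_nsmul_le_sum _ _ _ h2
  rw [smul_eq_mul, Finset.card_univ, ← Nat.card_eq_fintype_card] at h3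
  exact h3

/-- `p` exactly divides `|X|` gives a Sylow subgroup of order `p`. -/
theorem card_sylow_eq (hd : p ∣ Nat.card X) (hpp : ¬ p ^ 2 ∣ Nat.card X) (P : Sylow p X) :
    Nat.card (P : Subgroup X) = p := by
  have h1 := P.card_eq_multiplicity
  have h0 : Nat.card X ≠ 0 := Nat.card_pos.ne'
  have h2 : (Nat.card X).factorization p ≠ 0 :=
    (hp.out.factorization_pos_of_dvd h0 hd).ne'
  have h3 : (Nat.card X).factorization p < 2 := by
    by_contra h
    exact hpp ((hp.out.pow_dvd_iff_le_factorization h0).2 (by omega))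
  have h4 : (Nat.card X).factorization p = 1 := by omega
  rw [h1, h4, pow_one]

/-- The counting inequality. -/
theorem sum_le_card (L : List ℕ) (hnd : L.Nodup) (hpr : ∀ p ∈ L, p.Prime)
    (hsq : ∀ p ∈ L, p ∣ Nat.card X ∧ ¬ p ^ 2 ∣ Nat.card X) (d c : ℕ → ℕ)
    (hd : ∀ p ∈ L, Nat.card (Sylow p X) = d p)
    (hc : ∀ p ∈ L, ∀ _ : Fact p.Prime, ∀ P : Sylow p X,
      Nat.card (Subgroup.centralizer ((P : Subgroup X) : Set X)) = c p)
    (T : List ℕ)
    (hT : ∀ p ∈ T, ∀ q ∈ T, p ∈ L → q ∈ L → p ≠ q → ¬ (q ∣ c p ∧ p ∣ c q)) :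
    (L.map (fun p => if p ∈ T then d p * ((p - 1) * (c p / p)) else d p * (p - 1))).sum + 1 ≤
      Nat.card X := by
  classical
  haveI := Fintype.ofFinite X
  let A : ℕ → Finset X := fun p => if p ∈ T then Finset.univ.filter (fun x => p ∣ orderOf x)
    else Finset.univ.filter (fun x => orderOf x = p)
  have hcardA : ∀ p ∈ L, (if p ∈ T then d p * ((p - 1) * (c p / p)) else d p * (p - 1)) ≤ (A p).card := by
    intro p hpL
    haveI : Fact p.Prime := ⟨hpr p hpL⟩
    obtain ⟨P⟩ : Nonempty (Sylow p X) := inferInstance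
    have hP := card_sylow_eq (hsq p hpL).1 (hsq p hpL).2 P
    by_cases hpT : p ∈ T
    · rw [if_pos hpT]
      have hA : A p = Finset.univ.filter (fun x => p ∣ orderOf x) := if_pos hpT
      have h1 := card_dvd_orderOf_ge P hP (hsq p hpL).2
      rw [hd p hpL, hc p hpL ‹_› P, Nat.card_eq_fintype_card, Fintype.card_subtype] at h1
      rw [hA]
      exact h1
    · rw [if_neg hpT]
      have hA : A p = Finset.univ.filter (fun x => orderOf x = p) := if_neg hpT
      have h1 := card_orderOf_eq_of_card_sylow P hP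
      rw [hd p hpL, Nat.card_eq_fintype_card, Fintype.card_subtype] at h1
      rw [hA]
      exact h1.symm.le
  have hdisj : ∀ p ∈ L, ∀ q ∈ L, p ≠ q → Disjoint (A p) (A q) := by
    intro p hpL q hqL hpq
    rw [Finset.disjoint_left]
    intro x hxp hxq
    have hpp := hpr p hpL
    have hqq := hpr q hqL
    haveI : Fact p.Prime := ⟨hpp⟩
    haveI : Fact q.Prime := ⟨hqq⟩
    have hAp1 : p ∈ T → (x ∈ A p ↔ p ∣ orderOf x) := fun h => by
      simp only [A, if_pos h, Finset.mem_filter, Finset.mem_univ, true_and]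
    have hAp2 : p ∉ T → (x ∈ A p ↔ orderOf x = p) := fun h => by
      simp only [A, if_neg h, Finset.mem_filter, Finset.mem_univ, true_and]
    have hAq1 : q ∈ T → (x ∈ A q ↔ q ∣ orderOf x) := fun h => by
      simp only [A, if_pos h, Finset.mem_filter, Finset.mem_univ, true_and]
    have hAq2 : q ∉ T → (x ∈ A q ↔ orderOf x = q) := fun h => by
      simp only [A, if_neg h, Finset.mem_filter, Finset.mem_univ, true_and]
    by_cases hpT : p ∈ T <;> by_cases hqT : q ∈ T
    · rw [hAp1 hpT] at hxp
      rw [hAq1 hqT] at hxq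
      apply hT p hpT q hqT hpL hqL hpq
      obtain ⟨P⟩ : Nonempty (Sylow p X) := inferInstance
      obtain ⟨Q⟩ : Nonempty (Sylow q X) := inferInstance
      have hP := card_sylow_eq (hsq p hpL).1 (hsq p hpL).2 P
      have hQ := card_sylow_eq (hsq q hqL).1 (hsq q hqL).2 Q
      rw [← hc p hpL ⟨hpp⟩ P, ← hc q hqL ⟨hqq⟩ Q]
      exact ⟨dvd_card_centralizer_of_dvd_orderOf hpq P hP hxp hxq,
        dvd_card_centralizer_of_dvd_orderOf hpq.symm Q hQ hxq hxp⟩
    · rw [hAp1 hpT] at hxp
      rw [hAq2 hqT] at hxq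
      rw [hxq] at hxp
      exact hpq ((Nat.prime_dvd_prime_iff_eq hpp hqq).1 hxp)
    · rw [hAp2 hpT] at hxp
      rw [hAq1 hqT] at hxq
      rw [hxp] at hxq
      exact hpq ((Nat.prime_dvd_prime_iff_eq hqq hpp).1 hxq).symm
    · rw [hAp2 hpT] at hxp
      rw [hAq2 hqT] at hxq
      exact hpq (hxp.symm.trans hxq)
  have hsum : (L.map (fun p => if p ∈ T then d p * ((p - 1) * (c p / p)) else d p * (p - 1))).sum ≤
      (L.toFinset.biUnion A).card := by
    rw [Finset.card_biUnion (fun p hp q hq hpq => hdisj p (List.mem_toFinset.1 hp) q (List.mem_toFinset.1 hq) hpq),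
      List.sum_toFinset _ hnd]
    apply List.sum_le_sum
    intro p hp
    exact hcardA p hp
  have hsub : L.toFinset.biUnion A ⊆ Finset.univ.erase 1 := by
    intro x hx
    rw [Finset.mem_biUnion] at hx
    obtain ⟨p, hp, hx⟩ := hx
    have hpp := hpr p (List.mem_toFinset.1 hp)
    refine Finset.mem_erase.2 ⟨?_, Finset.mem_univ _⟩
    rintro rfl
    by_cases hpT : p ∈ T
    · simp only [A, if_pos hpT, Finset.mem_filter, Finset.mem_univ, true_and, orderOf_one] at hx
      exact hpp.one_lt.ne' (Nat.dvd_one.1 hx)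
    · simp only [A, if_neg hpT, Finset.mem_filter, Finset.mem_univ, true_and, orderOf_one] at hx
      exact hpp.one_lt.ne hx
  have h1 := Finset.card_le_card hsub
  rw [Finset.card_erase_of_mem (Finset.mem_univ _), Finset.card_univ, ← Nat.card_eq_fintype_card] at h1
  have h2 : 0 < Nat.card X := Nat.card_pos
  omega

end Cfsg.Agent.Lib.FG85.PrimeSylow
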