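import Mathlib
import Cfsg.Agent.Lib.FG85.PrimeSylow

set_option autoImplicit false

namespace Cfsg.Agent.Lib.FG85.Cert175560

open Cfsg.Agent.Lib.FG85.PrimeSylow Cfsg.Agent.Lib.SmallSimple.Count Cfsg.Agent.Lib.Small.Basic

def D : List ℕ := [1, 2, 3, 4, 5, 6, 7, 8, 10, 11, 12, 14, 15, 19, 20, 21, 22, 24, 28, 30, 33, 35, 38, 40, 42, 44, 55, 56, 57, 60, 66, 70, 76, 77, 84, 88, 95, 105, 110, 114, 120, 132, 133, 140, 152, 154, 165, 168, 190, 209, 210, 220, 228, 231, 264, 266, 280, 285, 308, 330, 380, 385, 399, 418, 420, 440, 456, 462, 532, 570, 616, 627, 660, 665, 760, 770, 798, 836, 840, 924, 1045, 1064, 1140, 1155, 1254, 1320, 1330, 1463, 1540, 1596, 1672, 1848, 1995, 2090, 2280, 2310, 2508, 2660, 2926, 3080, 3135, 3192, 3990, 4180, 4389, 4620, 5016, 5320, 5852, 6270, 7315, 7980, 8360, 8778, 9240, 11704, 12540, 14630, 15960, 17556, 21945, 25080, 29260, 35112, 43890, 58520, 87780, 175560]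

def Qs : List ℕ := [2, 3, 5, 7, 11, 19]

def upd (f : ℕ → ℕ) (a v : ℕ) : ℕ → ℕ := fun x => if x = a then v else f x

def goodD (N p d : ℕ) : Bool := decide (d % p = 1 ∧ d ≠ 1 ∧ d * p ∣ N)

def goodA (N p d a : ℕ) : Bool :=
  decide (a ∣ p - 1 ∧ a ≠ 1 ∧ d * a * p ∣ N ∧ (p % 4 = 3 → d = p + 1 → ¬ 2 ∣ a)) &&
    Qs.all fun q => decide (q = p ∨ q ≤ (d - 1) / p ∨ ¬ q ∣ N / (d * a))

def optsOf (N p : ℕ) : List (ℕ × ℕ) :=
  D.flatMap fun d => if goodD N p d then
    (List.range p).filterMap fun a => if goodA N p d a then some (d, N / (d * a)) else none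
  else []

def subs : List ℕ → List (List ℕ)
  | [] => [[]]
  | a :: l => subs l ++ (subs l).map (a :: ·)

def compatB (L : List ℕ) (c : ℕ → ℕ) : Bool :=
  L.all fun p => L.all fun q => decide (p = q ∨ ¬ q ∣ c p ∨ p ∣ c q)

def countB (N : ℕ) (L : List ℕ) (d c : ℕ → ℕ) : Bool :=
  (subs L).all fun T => !(T.all fun p => T.all fun q => decide (p = q ∨ ¬ q ∣ c p ∨ ¬ p ∣ c q)) ||
    decide ((L.map fun p => if p ∈ T then d p * ((p - 1) * (c p / p)) else d p * (p - 1)).sum + 1 ≤ N)

def chk (N : ℕ) (L₀ : List ℕ) : List ℕ → (ℕ → ℕ) → (ℕ → ℕ) → Bool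
  | [], d, c => !(compatB L₀ c && countB N L₀ d c)
  | p :: L, d, c => (optsOf N p).all fun t => chk N L₀ L (upd d p t.1) (upd c p t.2)

def Ls (N : ℕ) : List ℕ := [3, 5, 7, 11, 19].filter (· ∣ N)

theorem chk_all : (D.all fun M => decide (M = 9240) || !decide (M ∣ 9240) ||
    chk (19 * M) (Ls (19 * M)) (Ls (19 * M)) (fun _ => 0) (fun _ => 0)) = true := by
  decide +kernel

theorem mem_D {d : ℕ} (h : d ∣ 175560) : d ∈ D := by
  have h2 : ∀ x ∈ List.range 420, x ∣ 175560 → x ∈ D ∧ 175560 / x ∈ D := by decide +kernel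
  obtain ⟨e, he⟩ := h
  have hd0 : 0 < d := Nat.pos_of_ne_zero (by rintro rfl; simp at he)
  have he0 : 0 < e := Nat.pos_of_ne_zero (by rintro rfl; simp at he)
  by_cases hd : d < 420
  · exact (h2 d (List.mem_range.2 hd) ⟨e, he⟩).1
  · have he1 : e < 420 := by
      by_contra he1
      have : 420 * 420 ≤ d * e := Nat.mul_le_mul (by omega) (by omega)
      omega
    have h3 := (h2 e (List.mem_range.2 he1) ⟨d, by rw [he, mul_comm]⟩).2
    have h4 : 175560 / e = d := by
      rw [he]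
      exact Nat.mul_div_cancel _ he0
    rwa [h4] at h3

theorem chk_sound (N : ℕ) (L₀ : List ℕ) (d c : ℕ → ℕ) :
    ∀ (L : List ℕ) (d₀ c₀ : ℕ → ℕ), (∀ p ∈ L, (d p, c p) ∈ optsOf N p) →
      (∀ x, x ∉ L → d₀ x = d x ∧ c₀ x = c x) → chk N L₀ L d₀ c₀ = true →
      (compatB L₀ c && countB N L₀ d c) = false := by
  intro L
  induction L with
  | nil =>
    intro d₀ c₀ _ h1 h2
    have e1 : d₀ = d := funext fun x => (h1 x (by simp)).1
    have e2 : c₀ = c := funext fun x => (h1 x (by simp)).2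
    subst e1 e2
    have h3 : (!(compatB L₀ c₀ && countB N L₀ d₀ c₀)) = true := h2
    simpa only [Bool.not_eq_true'] using h3
  | cons p L ih =>
    intro d₀ c₀ h0 h1 h2
    simp only [chk, List.all_eq_true] at h2
    have h3 := h2 (d p, c p) (h0 p (by simp))
    refine ih _ _ (fun q hq => h0 q (List.mem_cons_of_mem _ hq)) ?_ h3
    intro x hx
    by_cases hxp : x = p
    · subst hxp
      simp [upd]
    · have h4 := h1 x (by simp [hxp, hx])
      simp [upd, hxp, h4.1, h4.2]

variable {X : Type*} [Group X] [Finite X] 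

/-- The data attached to a prime dividing `|X|` exactly. -/
theorem exists_opt [IsSimpleGroup X] (hnc : ¬ IsMulCommutative X) (N : ℕ) (hN : Nat.card X = N)
    (hdvd : N ∣ 175560) {p : ℕ} [hp : Fact p.Prime] (hpd : p ∣ N) (hpp : ¬ p ^ 2 ∣ N) :
    ∃ t ∈ optsOf N p, Nat.card (Sylow p X) = t.1 ∧ ∀ P : Sylow p X,
      Nat.card (Subgroup.centralizer ((P : Subgroup X) : Set X)) = t.2 := by
  have hp1 : 1 < p := hp.out.one_lt
  obtain ⟨P⟩ : Nonempty (Sylow p X) := inferInstance
  have hP : Nat.card (P : Subgroup X) = p := card_sylow_eq (hN ▸ hpd) (hN ▸ hpp) P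
  obtain ⟨a, ha1, ha2, ha3⟩ := exists_index_centralizer hnc (hN ▸ hpd) P hP
  set d := Nat.card (Sylow p X) with hd
  set c := Nat.card (Subgroup.centralizer ((P : Subgroup X) : Set X)) with hc
  have hmul : d * (a * c) = N := by
    rw [← ha3, hd, card_sylow_mul_card_normalizer P, hN]
  have hNpos : 0 < N := by rw [← hN]; exact Nat.card_pos
  have hd0 : 0 < d := Nat.pos_of_ne_zero (by rintro h; rw [h] at hmul; omega)
  have ha0 : 0 < a := Nat.pos_of_ne_zero (by rintro h; rw [h] at hmul; simp at hmul; omega)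
  have hpc : p ∣ c := by
    rw [← hP]
    apply Subgroup.card_dvd_of_le
    intro x hx
    rw [Subgroup.mem_centralizer_iff]
    intro y hy
    exact comm_of_card P hP hy hx
  have hcval : N / (d * a) = c := by
    rw [← hmul, ← mul_assoc]
    exact Nat.mul_div_cancel_left _ (Nat.mul_pos hd0 ha0)
  have hmod : d % p = 1 := by
    have h1 : d ≡ 1 [MOD p] := card_sylow_modEq_one p X
    have h2 : d % p = 1 % p := h1
    rwa [Nat.mod_eq_of_lt hp1] at h2
  have hn1 : d ≠ 1 := card_sylow_ne_one hnc p (hN ▸ hpd)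
  have hdD : d ∈ D := by
    exact mem_D ((Dvd.intro _ hmul).trans hdvd)
  have hgoodD : goodD N p d = true := by
    simp only [goodD, decide_eq_true_eq]
    refine ⟨hmod, hn1, ?_⟩
    rw [← hmul]
    obtain ⟨k, hk⟩ := hpc
    exact ⟨a * k, by rw [hk]; ring⟩
  have hgoodA : goodA N p d a = true := by
    simp only [goodA, Bool.and_eq_true, decide_eq_true_eq, List.all_eq_true]
    refine ⟨⟨ha1, ha2, ?_, ?_⟩, ?_⟩
    · rw [← hmul]
      obtain ⟨k, hk⟩ := hpc
      exact ⟨k, by rw [hk]; ring⟩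
    · intro h4 h5 h6
      apply not_two_dvd_card_normalizer hnc P hP h4 h5
      rw [ha3]
      exact h6.trans (Nat.dvd_mul_right _ _)
    · intro q hq
      have hqp : q.Prime := by
        simp only [Qs, List.mem_cons, List.not_mem_nil, or_false] at hq
        rcases hq with rfl | rfl | rfl | rfl | rfl | rfl <;> norm_num
      rw [hcval]
      by_cases h1 : q = p
      · exact Or.inl h1
      by_cases h2 : q ≤ (d - 1) / p
      · exact Or.inr (Or.inl h2)
      · refine Or.inr (Or.inr ?_)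
        have h3 : (d - 1) / p < q := by omega
        exact not_dvd_card_centralizer hn1 P hP hqp h1 h3
  have hap : a ∈ List.range p := by
    refine List.mem_range.2 ?_
    have := Nat.le_of_dvd (by omega) ha1
    omega
  refine ⟨(d, c), ?_, rfl, ?_⟩
  · simp only [optsOf, List.mem_flatMap]
    refine ⟨d, hdD, ?_⟩
    rw [if_pos hgoodD, List.mem_filterMap]
    refine ⟨a, hap, ?_⟩
    rw [if_pos hgoodA, hcval]
  · intro Q
    exact card_centralizer_eq Q P

/-- No nonabelian simple group has order a proper multiple of `19` dividing `175560`. -/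
theorem false_of_simple [IsSimpleGroup X] (hnc : ¬ IsMulCommutative X) (hdvd : Nat.card X ∣ 175560)
    (h19 : 19 ∣ Nat.card X) (hne : Nat.card X ≠ 175560) : False := by
  classical
  obtain ⟨M, hM⟩ := h19
  set N := Nat.card X with hN
  have hM1 : M ∣ 9240 := by
    have : 19 * M ∣ 19 * 9240 := by rw [← hM]; exact hdvd
    exact (Nat.mul_dvd_mul_iff_left (by norm_num)).1 this
  have hM2 : M ≠ 9240 := by
    rintro rfl
    exact hne hM
  have hMD : M ∈ D := by
    exact mem_D (hM1.trans (by norm_num))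
  have hchk := List.all_eq_true.1 chk_all M hMD
  simp only [Bool.or_eq_true, decide_eq_true_eq, Bool.not_eq_true', decide_eq_false_iff_not] at hchk
  have hchk' : chk N (Ls N) (Ls N) (fun _ => 0) (fun _ => 0) = true := by
    rcases hchk with (h | h) | h
    · exact absurd h hM2
    · exact absurd hM1 h
    · rw [hM]; exact h
  set L₀ := Ls N with hL₀
  have hprime : ∀ p ∈ L₀, p.Prime := by
    intro p hp
    have h1 : p ∈ [3, 5, 7, 11, 19] := (List.mem_filter.1 hp).1
    simp only [List.mem_cons, List.not_mem_nil, or_false] at h1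
    rcases h1 with rfl | rfl | rfl | rfl | rfl <;> norm_num
  have hsq : ∀ p ∈ L₀, p ∣ N ∧ ¬ p ^ 2 ∣ N := by
    intro p hp
    have h0 := List.mem_filter.1 hp
    have h1 : p ∈ [3, 5, 7, 11, 19] := h0.1
    have h2 : p ∣ N := by simpa using h0.2
    refine ⟨h2, fun h3 => ?_⟩
    have h4 : p ^ 2 ∣ 175560 := h3.trans hdvd
    simp only [List.mem_cons, List.not_mem_nil, or_false] at h1
    rcases h1 with rfl | rfl | rfl | rfl | rfl <;> norm_num at h4
  have hnd : L₀.Nodup := List.Nodup.filter _ (by decide)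
  have hex : ∀ p, p ∈ L₀ → ∃ t : ℕ × ℕ, t ∈ optsOf N p ∧ Nat.card (Sylow p X) = t.1 ∧
      ∀ _ : Fact p.Prime, ∀ P : Sylow p X,
        Nat.card (Subgroup.centralizer ((P : Subgroup X) : Set X)) = t.2 := by
    intro p hp
    haveI : Fact p.Prime := ⟨hprime p hp⟩
    obtain ⟨t, h1, h2, h3⟩ := exists_opt hnc N rfl hdvd (hsq p hp).1 (hsq p hp).2
    refine ⟨t, h1, h2, fun _ P => ?_⟩
    exact h3 P
  choose! τ hτ1 hτ2 hτ3 using hex
  let d : ℕ → ℕ := fun x => if x ∈ L₀ then (τ x).1 else 0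
  let c : ℕ → ℕ := fun x => if x ∈ L₀ then (τ x).2 else 0
  have hd : ∀ p ∈ L₀, d p = (τ p).1 := fun p hp => if_pos hp
  have hc : ∀ p ∈ L₀, c p = (τ p).2 := fun p hp => if_pos hp
  have hres := chk_sound N L₀ d c L₀ (fun _ => 0) (fun _ => 0)
    (fun p hp => by rw [hd p hp, hc p hp]; exact hτ1 p hp)
    (fun x hx => ⟨(if_neg hx).symm, (if_neg hx).symm⟩) hchk'
  have hcompat : compatB L₀ c = true := by
    simp only [compatB, List.all_eq_true, decide_eq_true_eq]
    intro p hp q hq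
    by_cases hpq : p = q
    · exact Or.inl hpq
    by_cases hqd : q ∣ c p
    · refine Or.inr (Or.inr ?_)
      haveI : Fact p.Prime := ⟨hprime p hp⟩
      haveI : Fact q.Prime := ⟨hprime q hq⟩
      obtain ⟨P⟩ : Nonempty (Sylow p X) := inferInstance
      obtain ⟨Q⟩ : Nonempty (Sylow q X) := inferInstance
      have hP := card_sylow_eq (hsq p hp).1 (hsq p hp).2 P
      have hQ := card_sylow_eq (hsq q hq).1 (hsq q hq).2 Q
      rw [hc p hp, ← hτ3 p hp ‹_› P] at hqd
      rw [hc q hq, ← hτ3 q hq ‹_› Q]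
      exact dvd_card_centralizer_symm P Q hP hQ hqd
    · exact Or.inr (Or.inl hqd)
  have hcount : countB N L₀ d c = true := by
    simp only [countB, List.all_eq_true, Bool.or_eq_true, Bool.not_eq_true', decide_eq_true_eq]
    intro T _
    by_cases hT : (T.all fun p => T.all fun q => decide (p = q ∨ ¬ q ∣ c p ∨ ¬ p ∣ c q)) = true
    · right
      have hT' : ∀ p ∈ T, ∀ q ∈ T, p ∈ L₀ → q ∈ L₀ → p ≠ q → ¬ (q ∣ c p ∧ p ∣ c q) := by
        simp only [List.all_eq_true, decide_eq_true_eq] at hT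
        intro p hp q hq _ _ hpq h
        rcases hT p hp q hq with h1 | h1 | h1
        · exact hpq h1
        · exact h1 h.1
        · exact h1 h.2
      exact sum_le_card L₀ hnd hprime hsq d c (fun p hp => by rw [hd p hp]; exact hτ2 p hp)
        (fun p hp i P => by rw [hc p hp]; exact hτ3 p hp i P) T hT'
    · left
      simpa using hT
  rw [hcompat, hcount] at hres
  simp at hres

end Cfsg.Agent.Lib.FG85.Cert175560
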